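import Cfsg.Agent.H10.SuzT.S3.RAll
import Cfsg.Agent.H10.SuzT.S4.RAll
import Cfsg.Agent.H10.SuzT.S5.RAll
import Cfsg.Agent.H10.SuzT.S6.RAll
import Cfsg.Agent.H35.T1680.RAll
import Cfsg.Agent.H35.T1680.PAll

/-!
# The order of the presented Suz is at most 448345497600 (helper10)

A tower of coset enumerations: `⟨a,c,d⟩` over `1` (16), `⟨a,b,c,d⟩` over `⟨a,c,d⟩` (135),
`⟨a,…,e⟩` over `⟨a,…,d⟩` (280), `⟨a,…,f⟩` over `⟨a,…,e⟩` (416), each for the sub-presentation on
the generators involved, and Suz over `⟨a,…,f⟩` (1782, helper35's certificate).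
-/

set_option autoImplicit false

namespace Cfsg.Agent.H10.SuzT

open Cfsg.Agent.H35 Cfsg.Spor

/-- the subgroup generated by a list of words -/
def swGrp {γ : Type} {G : Type*} [Group G] (gen : γ → G) (sw : List (List γ)) : Subgroup G :=
  Subgroup.closure {g | ∃ w ∈ sw, g = uw gen w}

theorem mem_swGrp {γ : Type} {G : Type*} [Group G] (gen : γ → G) (sw : List (List γ))
    (w : List γ) (hw : w ∈ sw) : uw gen w ∈ swGrp gen sw :=
  Subgroup.subset_closure ⟨w, hw, rfl⟩

theorem swGrp_le_range {γ : Type} {G' : Type*} [Group G'] {Q : Type*} [Group Q] (gen' : γ → G')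
    (genQ : γ → Q) (S : γ → Bool) (φ : Q →* G') (hφ : ∀ x, S x = true → φ (genQ x) = gen' x)
    (sw : List (List γ)) (hsw : sw.all (fun w => w.all S) = true) :
    swGrp gen' sw ≤ φ.range := by
  unfold swGrp
  rw [Subgroup.closure_le]
  rintro g ⟨w, hw, rfl⟩
  rw [List.all_eq_true] at hsw
  have hwS := hsw w hw
  have key : ∀ u : List γ, u.all S = true → φ (uw genQ u) = uw gen' u := by
    intro u
    induction u with
    | nil => intro _; simp [uw]
    | cons x u ih =>
      intro hu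
      rw [List.all_cons, Bool.and_eq_true] at hu
      rw [uw_cons, uw_cons, map_mul, hφ x hu.1, ih hu.2]
  exact ⟨uw genQ w, key w hwS⟩

/-- the groups of the tower -/
abbrev P3 := WG s3_rws s3_prels
abbrev P4 := WG s4_rws s4_prels
abbrev P5 := WG s5_rws s5_prels
abbrev P6 := WG s6_rws s6_prels

theorem p3_bound : Finite P3 ∧ Nat.card P3 ≤ 16 := by
  have hy : RHyp s3_rd (swGrp (wgGen s3_rws s3_prels) s3_rsw) (wgGen s3_rws s3_prels) := by
    refine ⟨wg_inv _ _, suz_gof_gi, by decide, fun p hp => wrapRow_of_le _ _ p hp, ?_, ?_,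
      s3_h0, by decide⟩
    · exact circTab_valid _ (wg_inv _ _) _ (wg_full_one _ _) s3_circT s3_ccert s3_circ_ok
    · exact hcTab_valid _ (wg_inv _ _) _ s3_rsw
        (fun w hw => mem_swGrp _ _ w hw) s3_hc1T s3_hc2T _
        (fun c hc => allR_sound _ _ _ 0 s3_hc_ok c (Nat.zero_le _) (by omega) hc)
  have hb := replay_bound hy suz_gens_all (wg_closure _ _) (by decide) (by decide) s3_rall
  have hbot : swGrp (wgGen s3_rws s3_prels) s3_rsw ≤
      (Subgroup.subtype (⊥ : Subgroup P3)).range := by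
    unfold swGrp
    rw [Subgroup.closure_le]
    rintro g ⟨w, hw, rfl⟩
    exact absurd hw (by simp [s3_rsw])
  have := card_le_tower _ 16 hb (Subgroup.subtype (⊥ : Subgroup P3)) hbot 1
    (by rw [Subgroup.card_bot])
  simpa using this

theorem p4_bound : Finite P4 ∧ Nat.card P4 ≤ 135 * 16 := by
  have hy : RHyp s4_rd (swGrp (wgGen s4_rws s4_prels) s4_rsw) (wgGen s4_rws s4_prels) := by
    refine ⟨wg_inv _ _, suz_gof_gi, by decide, fun p hp => wrapRow_of_le _ _ p hp, ?_, ?_,
      s4_h0, by decide⟩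
    · exact circTab_valid _ (wg_inv _ _) _ (wg_full_one _ _) s4_circT s4_ccert s4_circ_ok
    · exact hcTab_valid _ (wg_inv _ _) _ s4_rsw
        (fun w hw => mem_swGrp _ _ w hw) s4_hc1T s4_hc2T _
        (fun c hc => allR_sound _ _ _ 0 s4_hc_ok c (Nat.zero_le _) (by omega) hc)
  have hb := replay_bound hy suz_gens_all (wg_closure _ _) (by decide) (by decide) s4_rall
  obtain ⟨φ, hφ⟩ := sub_hom s3_S (wgGen s4_rws s4_prels) (wg_inv _ _) s4_rws s4_prels
    s3_rws s3_prels (wg_rws _ _) (wg_prels _ _) (by decide)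
  have := p3_bound.1
  exact card_le_tower _ 135 hb φ
    (swGrp_le_range _ (wgGen s3_rws s3_prels) s3_S φ hφ s4_rsw (by decide)) 16 p3_bound.2

theorem p5_bound : Finite P5 ∧ Nat.card P5 ≤ 280 * (135 * 16) := by
  have hy : RHyp s5_rd (swGrp (wgGen s5_rws s5_prels) s5_rsw) (wgGen s5_rws s5_prels) := by
    refine ⟨wg_inv _ _, suz_gof_gi, by decide, fun p hp => wrapRow_of_le _ _ p hp, ?_, ?_,
      s5_h0, by decide⟩
    · exact circTab_valid _ (wg_inv _ _) _ (wg_full_one _ _) s5_circT s5_ccert s5_circ_ok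
    · exact hcTab_valid _ (wg_inv _ _) _ s5_rsw
        (fun w hw => mem_swGrp _ _ w hw) s5_hc1T s5_hc2T _
        (fun c hc => allR_sound _ _ _ 0 s5_hc_ok c (Nat.zero_le _) (by omega) hc)
  have hb := replay_bound hy suz_gens_all (wg_closure _ _) (by decide) (by decide) s5_rall
  obtain ⟨φ, hφ⟩ := sub_hom s4_S (wgGen s5_rws s5_prels) (wg_inv _ _) s5_rws s5_prels
    s4_rws s4_prels (wg_rws _ _) (wg_prels _ _) (by decide)
  have := p4_bound.1
  exact card_le_tower _ 280 hb φ
    (swGrp_le_range _ (wgGen s4_rws s4_prels) s4_S φ hφ s5_rsw (by decide)) _ p4_bound.2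

theorem p6_bound : Finite P6 ∧ Nat.card P6 ≤ 416 * (280 * (135 * 16)) := by
  have hy : RHyp s6_rd (swGrp (wgGen s6_rws s6_prels) s6_rsw) (wgGen s6_rws s6_prels) := by
    refine ⟨wg_inv _ _, suz_gof_gi, by decide, fun p hp => wrapRow_of_le _ _ p hp, ?_, ?_,
      s6_h0, by decide⟩
    · exact circTab_valid _ (wg_inv _ _) _ (wg_full_one _ _) s6_circT s6_ccert s6_circ_ok
    · exact hcTab_valid _ (wg_inv _ _) _ s6_rsw
        (fun w hw => mem_swGrp _ _ w hw) s6_hc1T s6_hc2T _
        (fun c hc => allR_sound _ _ _ 0 s6_hc_ok c (Nat.zero_le _) (by omega) hc)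
  have hb := replay_bound hy suz_gens_all (wg_closure _ _) (by decide) (by decide) s6_rall
  obtain ⟨φ, hφ⟩ := sub_hom s5_S (wgGen s6_rws s6_prels) (wg_inv _ _) s6_rws s6_prels
    s5_rws s5_prels (wg_rws _ _) (wg_prels _ _) (by decide)
  have := p5_bound.1
  exact card_le_tower _ 416 hb φ
    (swGrp_le_range _ (wgGen s5_rws s5_prels) s5_S φ hφ s6_rsw (by decide)) _ p5_bound.2

/-- the subgroup `⟨a, …, f⟩` of the presented Suz -/
def Hs : Subgroup Suz := swGrp suz_gen t1680_sw

theorem t1680_hsw : t1680_rsw = t1680_sw := by decide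

/-- helper35's certificates for Suz over `⟨a, …, f⟩` -/
theorem suz_hyp : TCHyp suz_gen Hs t1680_pd t1680_rd suz_rws suz_prels t1680_sw where
  UP := fun f hf h1 h2 => suz_UP f hf h1 h2
  hP := by
    refine ⟨by decide, suz_gens_all, ?_, t1680_psub⟩
    intro p hp
    have h : (t1680_pd.ptOK suz_rws suz_prels p && t1680_pd.orbOK t1680_sw t1680_roots p) = true :=
      t1680_pall p hp
    exact (Bool.and_eq_true_iff.mp h).1
  hy := by
    refine ⟨suz_inv, suz_gof_gi, by decide, fun p hp => wrapRow_of_le _ _ p hp, ?_, ?_,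
      t1680_h0, by decide⟩
    · exact circTab_valid suz_gen suz_inv _ suz_full_one t1680_circT t1680_ccert t1680_circ_ok
    · refine hcTab_valid suz_gen suz_inv Hs t1680_rsw ?_ t1680_hc1T t1680_hc2T _
        (fun c hc => allR_sound _ _ _ 0 t1680_hc_ok c (Nat.zero_le _) (by omega) hc)
      intro w hw
      rw [t1680_hsw] at hw
      exact mem_swGrp _ _ w hw
  hgensR := suz_gens_all
  hgen := suz_closure
  hN := by decide
  hNM := by decide
  hNN := rfl
  hchk := t1680_rall
  hH := rfl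

theorem suz_orbOK : ∀ p, p < t1680_pd.N → t1680_pd.orbOK t1680_sw t1680_roots p = true := by
  intro p hp
  have h : (t1680_pd.ptOK suz_rws suz_prels p && t1680_pd.orbOK t1680_sw t1680_roots p) = true :=
    t1680_pall p hp
  exact (Bool.and_eq_true_iff.mp h).2

theorem suz_bound : Finite Suz ∧ Nat.card Suz ≤ 448345497600 := by
  have hb := replay_bound suz_hyp.hy suz_gens_all suz_closure (by decide) (by decide) t1680_rall
  obtain ⟨φ, hφ⟩ := sub_hom s6_S suz_gen suz_inv suz_rws suz_prels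
    s6_rws s6_prels (suz_list_of_sat _ suz_sat).1 (suz_list_of_sat _ suz_sat).2 (by decide)
  have := p6_bound.1
  have := card_le_tower Hs 1782 hb φ
    (swGrp_le_range _ (wgGen s6_rws s6_prels) s6_S φ hφ t1680_sw (by decide)) _ p6_bound.2
  exact this

end Cfsg.Agent.H10.SuzT
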