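import Cfsg.Agent.H10.SuzT.LData

set_option autoImplicit false
set_option linter.all false

namespace Cfsg.Agent.H10.SuzT

open Cfsg.Agent.H35 Cfsg.Spor

theorem sl_lvl3 : allR (fun p => lvlOK t1680_pd sl_lab 0 sl_ws3 260 p) 1782 11 0 = true := by decide +kernel
theorem sl_fix3 : fixOK t1680_pd sl_ws3 [0, 995] = true := by decide +kernel
theorem sl_cnt3 : cntR (fun p => Nat.ble 1 (fld 16 (sl_lab p) 0)) 1782 11 0 = 1050 := by decide +kernel
theorem sl_lvl4 : allR (fun p => lvlOK t1680_pd sl_lab 2 sl_ws4 20 p) 1782 11 0 = true := by decide +kernel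
theorem sl_fix4 : fixOK t1680_pd sl_ws4 [0, 995, 260] = true := by decide +kernel
theorem sl_cnt4 : cntR (fun p => Nat.ble 1 (fld 16 (sl_lab p) 2)) 1782 11 0 = 192 := by decide +kernel
theorem sl_lvl5 : allR (fun p => lvlOK t1680_pd sl_lab 4 sl_ws5 14 p) 1782 11 0 = true := by decide +kernel
theorem sl_fix5 : fixOK t1680_pd sl_ws5 [0, 995, 260, 20] = true := by decide +kernel
theorem sl_cnt5 : cntR (fun p => Nat.ble 1 (fld 16 (sl_lab p) 4)) 1782 11 0 = 3 := by decide +kernel
theorem sl_cls1 : cntR (fun i => Nat.beq (t1680_pd.cls i) 1) 1782 11 0 = 1365 := by decide +kernel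
theorem sl_cls2 : cntR (fun i => Nat.beq (t1680_pd.cls i) 2) 1782 11 0 = 416 := by decide +kernel
theorem sl_clsall : allR (fun p => Nat.beq p 0 || (Nat.beq (t1680_pd.cls p) 1 || Nat.beq (t1680_pd.cls p) 2)) 1782 11 0 = true := by decide +kernel
theorem sl_cls0 : t1680_pd.cls 0 = 0 := by decide +kernel
theorem sl_cls995 : t1680_pd.cls 995 = 2 := by decide +kernel

end Cfsg.Agent.H10.SuzT
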