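import Cfsg.Agent.H10.SuzT.LData

set_option autoImplicit false
set_option linter.all false

namespace Cfsg.Agent.H10.SuzT

open Cfsg.Agent.H35 Cfsg.Spor

theorem sl_p11ok : allR (fun p => sl_p11.all (fun w => Nat.beq (t1680_pd.walk w p) p)) 1782 11 0 = true := by decide +kernel

end Cfsg.Agent.H10.SuzT
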