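import Cfsg.Agent.H10.SuzT.Upper
import Cfsg.Agent.H10.SuzT.LChk
import Cfsg.Agent.H10.SuzT.LChk11

/-!
# The presented Suz is simple of order 448345497600 (helper10)
-/

set_option autoImplicit false

namespace Cfsg.Agent.H10.SuzT

open Cfsg.Agent.H35 Cfsg.Spor

theorem sl_p11def : sl_p11 = sl_us.map (fun u => (List.replicate 11 u).flatten) := by
  decide +kernel

theorem dvd_1782 : ∀ k ∈ Nat.divisors 1782, 417 ≤ k → 11 ∣ k := by decide +kernel

theorem suz_cancel (x : Suz.Gen) (y : Suz) : suz_gen x * (suz_gen x * y) = y := by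
  rw [← mul_assoc, suz_inv, one_mul]

theorem suz_split (u : List Suz.Gen) (x : Suz.Gen) :
    suz_gen x = uw suz_gen u * uw suz_gen (u.reverse ++ [x]) := by
  rw [uw_append, uw_reverse _ suz_inv, uw_singleton, mul_inv_cancel_left]

theorem suz_edge (x y : Suz.Gen) : (suz_gen x * suz_gen y) ^ coxLabel Suz.edges x y = 1 :=
  suz_sat.1 x y

/-- the order and the simplicity of the presented Suz -/
theorem suz_main : Nat.card Suz = 448345497600 ∧ IsSimpleGroup Suz := by
  have hN : 0 < t1680_pd.N := by decide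
  obtain ⟨ρ, hw, hst, htr⟩ := tc_core suz_hyp hN
  have hfin : Finite Suz := suz_bound.1
  have hNval : t1680_pd.N = 1782 := rfl
  -- the orbits of the point stabiliser are the classes
  have horb := orbits_eq_classes suz_gen suz_inv t1680_roots suz_orbOK ρ hw Hs rfl
  -- base points
  let b1 : Fin t1680_pd.N := ⟨0, hN⟩
  let b2 : Fin t1680_pd.N := ⟨995, by decide⟩
  let b3 : Fin t1680_pd.N := ⟨260, by decide⟩
  let b4 : Fin t1680_pd.N := ⟨20, by decide⟩
  let b5 : Fin t1680_pd.N := ⟨14, by decide⟩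
  let K2 : Subgroup Suz := ⊤ ⊓ stabOf ρ b1
  let K3 : Subgroup Suz := K2 ⊓ stabOf ρ b2
  let K4 : Subgroup Suz := K3 ⊓ stabOf ρ b3
  let K5 : Subgroup Suz := K4 ⊓ stabOf ρ b4
  let K6 : Subgroup Suz := K5 ⊓ stabOf ρ b5
  -- level 1
  have s1 : 1782 * Nat.card K2 ≤ Nat.card (⊤ : Subgroup Suz) := by
    have := level_step ρ ⊤ b1 Finset.univ (fun x _ => by
      obtain ⟨g, hg⟩ := htr x
      exact ⟨g, Subgroup.mem_top g, hg⟩)
    rw [Finset.card_univ, Fintype.card_fin] at this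
    exact this
  -- level 2
  have s2 : 416 * Nat.card K3 ≤ Nat.card K2 := by
    have := level_step ρ K2 b2
      (Finset.univ.filter (fun p : Fin t1680_pd.N => Nat.beq (t1680_pd.cls p.val) 2 = true))
      (fun x hx => by
        rw [Finset.mem_filter, Nat.beq_eq] at hx
        obtain ⟨g, hg, e⟩ := (horb b2 x).mpr (by rw [hx.2]; exact sl_cls995.symm)
        exact ⟨g, ⟨Subgroup.mem_top g, hst ▸ hg⟩, e⟩)
    rw [card_filter_fin (fun i => Nat.beq (t1680_pd.cls i) 2) t1680_pd.N 11 (by decide)] at this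
    rw [show cntR (fun i => Nat.beq (t1680_pd.cls i) 2) t1680_pd.N 11 0 = 416 from sl_cls2] at this
    exact this
  -- level 3
  have hK3 : ∀ w ∈ sl_ws3, uw suz_gen w ∈ K3 := fun w hwm =>
    ⟨⟨Subgroup.mem_top _, fixOK_mem suz_gen ρ hw sl_ws3 _ sl_fix3 w hwm b1 (by show (0 : ℕ) ∈ _; decide)⟩,
      fixOK_mem suz_gen ρ hw sl_ws3 _ sl_fix3 w hwm b2 (by decide)⟩
  have s3 : 1050 * Nat.card K4 ≤ Nat.card K3 := by
    have := level_step ρ K3 b3
      (Finset.univ.filter (fun p : Fin t1680_pd.N => Nat.ble 1 (fld 16 (sl_lab p.val) 0) = true))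
      (fun x hx => by
        rw [Finset.mem_filter, Nat.ble_eq] at hx
        exact lvl_orbit suz_gen ρ hw K3 sl_lab 0 sl_ws3 b3 hK3
          (allR_all _ _ 11 (by decide) sl_lvl3) _ x rfl hx.2)
    rw [card_filter_fin (fun i => Nat.ble 1 (fld 16 (sl_lab i) 0)) t1680_pd.N 11 (by decide)] at this
    rw [show cntR (fun i => Nat.ble 1 (fld 16 (sl_lab i) 0)) t1680_pd.N 11 0 = 1050 from sl_cnt3]
      at this
    exact this
  -- level 4
  have hK4 : ∀ w ∈ sl_ws4, uw suz_gen w ∈ K4 := fun w hwm =>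
    ⟨⟨⟨Subgroup.mem_top _, fixOK_mem suz_gen ρ hw sl_ws4 _ sl_fix4 w hwm b1 (by show (0 : ℕ) ∈ _; decide)⟩,
      fixOK_mem suz_gen ρ hw sl_ws4 _ sl_fix4 w hwm b2 (by decide)⟩,
      fixOK_mem suz_gen ρ hw sl_ws4 _ sl_fix4 w hwm b3 (by decide)⟩
  have s4 : 192 * Nat.card K5 ≤ Nat.card K4 := by
    have := level_step ρ K4 b4
      (Finset.univ.filter (fun p : Fin t1680_pd.N => Nat.ble 1 (fld 16 (sl_lab p.val) 2) = true))
      (fun x hx => by
        rw [Finset.mem_filter, Nat.ble_eq] at hx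
        exact lvl_orbit suz_gen ρ hw K4 sl_lab 2 sl_ws4 b4 hK4
          (allR_all _ _ 11 (by decide) sl_lvl4) _ x rfl hx.2)
    rw [card_filter_fin (fun i => Nat.ble 1 (fld 16 (sl_lab i) 2)) t1680_pd.N 11 (by decide)] at this
    rw [show cntR (fun i => Nat.ble 1 (fld 16 (sl_lab i) 2)) t1680_pd.N 11 0 = 192 from sl_cnt4]
      at this
    exact this
  -- level 5
  have hK5 : ∀ w ∈ sl_ws5, uw suz_gen w ∈ K5 := fun w hwm =>
    ⟨⟨⟨⟨Subgroup.mem_top _, fixOK_mem suz_gen ρ hw sl_ws5 _ sl_fix5 w hwm b1 (by show (0 : ℕ) ∈ _; decide)⟩,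
      fixOK_mem suz_gen ρ hw sl_ws5 _ sl_fix5 w hwm b2 (by decide)⟩,
      fixOK_mem suz_gen ρ hw sl_ws5 _ sl_fix5 w hwm b3 (by decide)⟩,
      fixOK_mem suz_gen ρ hw sl_ws5 _ sl_fix5 w hwm b4 (by decide)⟩
  have s5 : 3 * Nat.card K6 ≤ Nat.card K5 := by
    have := level_step ρ K5 b5
      (Finset.univ.filter (fun p : Fin t1680_pd.N => Nat.ble 1 (fld 16 (sl_lab p.val) 4) = true))
      (fun x hx => by
        rw [Finset.mem_filter, Nat.ble_eq] at hx
        exact lvl_orbit suz_gen ρ hw K5 sl_lab 4 sl_ws5 b5 hK5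
          (allR_all _ _ 11 (by decide) sl_lvl5) _ x rfl hx.2)
    rw [card_filter_fin (fun i => Nat.ble 1 (fld 16 (sl_lab i) 4)) t1680_pd.N 11 (by decide)] at this
    rw [show cntR (fun i => Nat.ble 1 (fld 16 (sl_lab i) 4)) t1680_pd.N 11 0 = 3 from sl_cnt5]
      at this
    exact this
  have hK6pos : 0 < Nat.card K6 := Nat.card_pos
  have htop : Nat.card (⊤ : Subgroup Suz) = Nat.card Suz := Subgroup.card_top
  have hub := suz_bound.2
  have hcard : Nat.card Suz = 448345497600 := by omega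
  have hK6 : Nat.card K6 = 1 := by omega
  -- the representation is faithful
  have hinj : ∀ g : Suz, ρ g = 1 → g = 1 := by
    intro g hg
    have hmem : g ∈ K6 := by
      have hfix : ∀ b : Fin t1680_pd.N, g ∈ stabOf ρ b := fun b => by
        rw [mem_stabOf, hg]; rfl
      exact ⟨⟨⟨⟨⟨Subgroup.mem_top g, hfix b1⟩, hfix b2⟩, hfix b3⟩, hfix b4⟩, hfix b5⟩
    have hbot : K6 = ⊥ := Subgroup.card_eq_one.mp hK6
    rw [hbot, Subgroup.mem_bot] at hmem
    exact hmem
  refine ⟨hcard, ?_⟩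
  -- elements of order 11
  have h11 : ∀ u ∈ sl_us, uw suz_gen u ^ 11 = 1 := by
    intro u hu
    apply hinj
    have hmem : (List.replicate 11 u).flatten ∈ sl_p11 := by
      rw [sl_p11def]; exact List.mem_map.mpr ⟨u, hu, rfl⟩
    have hall := allR_all _ _ 11 (by decide) sl_p11ok
    have hinv : (ρ (uw suz_gen (List.replicate 11 u).flatten))⁻¹ = 1 := by
      ext p
      have h1 := hall p.val p.isLt
      rw [List.all_eq_true] at h1
      have h2 := h1 _ hmem
      rw [Nat.beq_eq, hw] at h2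
      rw [h2]; rfl
    rw [inv_eq_one, uw_rep] at hinv
    exact hinv
  have hnp : ¬ 11 ^ 2 ∣ Nat.card Suz := by rw [hcard]; norm_num
  have : Fact (Nat.Prime 11) := ⟨by norm_num⟩
  have hnt : Nontrivial Suz := by
    rw [← Finite.one_lt_card_iff_nontrivial, hcard]; norm_num
  refine @IsSimpleGroup.mk _ _ hnt ?_
  intro N hNn
  have hm : ∀ ω : Fin t1680_pd.N, ω ≠ b1 → ∃ O : Finset (Fin t1680_pd.N), 416 ≤ O.card ∧ b1 ∉ O ∧
      ∀ x ∈ O, ∃ h ∈ stabOf ρ b1, ρ h ω = x := by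
    intro ω hω
    refine ⟨Finset.univ.filter (fun p : Fin t1680_pd.N =>
      Nat.beq (t1680_pd.cls p.val) (t1680_pd.cls ω.val) = true), ?_, ?_, ?_⟩
    · rw [card_filter_fin (fun i => Nat.beq (t1680_pd.cls i) (t1680_pd.cls ω.val)) t1680_pd.N 11
        (by decide)]
      have hc := allR_all _ _ 11 (by decide) sl_clsall ω.val ω.isLt
      rw [Bool.or_eq_true, Bool.or_eq_true, Nat.beq_eq, Nat.beq_eq, Nat.beq_eq] at hc
      rcases hc with hc | hc | hc
      · exact absurd (Fin.ext hc) hω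
      · rw [hc, show cntR (fun i => Nat.beq (t1680_pd.cls i) 1) t1680_pd.N 11 0 = 1365 from sl_cls1]
        norm_num
      · rw [hc, show cntR (fun i => Nat.beq (t1680_pd.cls i) 2) t1680_pd.N 11 0 = 416 from sl_cls2]
    · intro h0
      rw [Finset.mem_filter, Nat.beq_eq] at h0
      have hc := allR_all _ _ 11 (by decide) sl_clsall ω.val ω.isLt
      rw [Bool.or_eq_true, Bool.or_eq_true, Nat.beq_eq, Nat.beq_eq, Nat.beq_eq] at hc
      have h00 : t1680_pd.cls (b1 : Fin t1680_pd.N).val = 0 := sl_cls0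
      obtain ⟨_, h0'⟩ := h0
      rw [h00] at h0'
      rcases hc with hc | hc | hc
      · exact hω (Fin.ext hc)
      · rw [hc] at h0'; exact absurd h0' (by decide)
      · rw [hc] at h0'; exact absurd h0' (by decide)
    · intro x hx
      rw [Finset.mem_filter, Nat.beq_eq] at hx
      obtain ⟨g, hg, e⟩ := (horb ω x).mpr hx.2
      exact ⟨g, hst ▸ hg, e⟩
  rcases normal_le_or_relIndex ρ b1 htr 416 hm N with hle | ⟨hk1, hk2, hk3⟩
  · -- inside the point stabiliser: trivial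
    left
    rw [Subgroup.eq_bot_iff_forall]
    intro n hn
    apply hinj
    ext ω
    obtain ⟨g, rfl⟩ := htr ω
    have h1 : g⁻¹ * n * g ∈ N := by
      have := hNn.conj_mem n hn g⁻¹
      rwa [inv_inv] at this
    have h2 : ρ (g⁻¹ * n * g) b1 = b1 := hle h1
    have h3 : ρ n (ρ g b1) = ρ g (ρ (g⁻¹ * n * g) b1) := by
      rw [← Equiv.Perm.mul_apply, ← Equiv.Perm.mul_apply, ← map_mul, ← map_mul]
      congr 2
      group
    rw [h3, h2]; rfl
  · -- transitive enough: order divisible by 11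
    right
    have hk2' : (stabOf ρ b1).relIndex N ∣ 1782 := hk2
    have h11N : 11 ∣ Nat.card N :=
      (dvd_1782 _ (Nat.mem_divisors.mpr ⟨hk2', by norm_num⟩) hk1).trans hk3
    have hmemN : ∀ u ∈ sl_us, uw suz_gen u ∈ N := fun u hu =>
      mem_normal_of_pow_prime 11 hnp N h11N _ (h11 u hu)
    have ha : suz_gen .a ∈ N := by
      rw [suz_split [.b, .c, .d, .e, .f, .g] .a]
      exact N.mul_mem (hmemN _ (by decide)) (hmemN _ (by decide))
    have he : suz_gen .e ∈ N := by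
      rw [suz_split [.c, .a, .b, .c, .d, .e, .g, .c, .f, .d, .c, .d, .b, .f] .e]
      exact N.mul_mem (hmemN _ (by decide)) (hmemN _ (by decide))
    have hb : suz_gen .b ∈ N :=
      mem_normal_of_odd_edge N _ _ 2 (suz_inv .b) (suz_edge .a .b) ha
    have hc : suz_gen .c ∈ N :=
      mem_normal_of_odd_edge N _ _ 1 (suz_inv .c) (suz_edge .b .c) hb
    have hf : suz_gen .f ∈ N :=
      mem_normal_of_odd_edge N _ _ 1 (suz_inv .f) (suz_edge .b .f) hb
    have hg : suz_gen .g ∈ N :=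
      mem_normal_of_odd_edge N _ _ 1 (suz_inv .g) (suz_edge .b .g) hb
    have hd : suz_gen .d ∈ N :=
      mem_normal_of_odd_edge N _ _ 1 (suz_inv .d) (suz_edge .e .d) he
    rw [eq_top_iff, ← suz_closure, Subgroup.closure_le]
    rintro _ ⟨x, rfl⟩
    cases x <;> assumption

end Cfsg.Agent.H10.SuzT
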