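import Cfsg.Agent.H10.WG
import Cfsg.Agent.H35.SuzGlue

/-!
# Sub-presentations of the Suz presentation (helper10; generated)
-/

set_option autoImplicit false

namespace Cfsg.Agent.H10.SuzT

open Cfsg.Agent.H35 Cfsg.Spor

def s3_rws : List (List Suz.Gen × List Suz.Gen) := [
  ([.a], [.a]),
  ([.a, .c], [.c, .a]),
  ([.a, .d], [.d, .a]),
  ([.c, .a], [.a, .c]),
  ([.c], [.c]),
  ([.c, .d, .c, .d, .c, .d, .c, .d], [.d, .c, .d, .c, .d, .c, .d, .c]),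
  ([.d, .a], [.a, .d]),
  ([.d, .c, .d, .c, .d, .c, .d, .c], [.c, .d, .c, .d, .c, .d, .c, .d]),
  ([.d], [.d]),
  ([.a, .d, .c, .d, .c], [.c, .d, .c, .d]),
  ([.b], []),
  ([.e], []),
  ([.f], []),
  ([.g], [])]
def s3_prels : List (List Suz.Gen × ℕ × ℕ) := [
]
def s3_S (x : Suz.Gen) : Bool := decide (x ∈ ([.a, .c, .d] : List Suz.Gen))

def s4_rws : List (List Suz.Gen × List Suz.Gen) := [
  ([.a], [.a]),
  ([.a, .b, .a, .b, .a], [.b, .a, .b, .a, .b]),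
  ([.a, .c], [.c, .a]),
  ([.a, .d], [.d, .a]),
  ([.b, .a, .b, .a, .b], [.a, .b, .a, .b, .a]),
  ([.b], [.b]),
  ([.b, .c, .b], [.c, .b, .c]),
  ([.b, .d], [.d, .b]),
  ([.c, .a], [.a, .c]),
  ([.c, .b, .c], [.b, .c, .b]),
  ([.c], [.c]),
  ([.c, .d, .c, .d, .c, .d, .c, .d], [.d, .c, .d, .c, .d, .c, .d, .c]),
  ([.d, .a], [.a, .d]),
  ([.d, .b], [.b, .d]),
  ([.d, .c, .d, .c, .d, .c, .d, .c], [.c, .d, .c, .d, .c, .d, .c, .d]),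
  ([.d], [.d]),
  ([.a, .d, .c, .d, .c], [.c, .d, .c, .d]),
  ([.e], []),
  ([.f], []),
  ([.g], [])]
def s4_prels : List (List Suz.Gen × ℕ × ℕ) := [
]
def s4_S (x : Suz.Gen) : Bool := decide (x ∈ ([.a, .b, .c, .d] : List Suz.Gen))

def s5_rws : List (List Suz.Gen × List Suz.Gen) := [
  ([.a], [.a]),
  ([.a, .b, .a, .b, .a], [.b, .a, .b, .a, .b]),
  ([.a, .c], [.c, .a]),
  ([.a, .d], [.d, .a]),
  ([.a, .e], [.e, .a]),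
  ([.b, .a, .b, .a, .b], [.a, .b, .a, .b, .a]),
  ([.b], [.b]),
  ([.b, .c, .b], [.c, .b, .c]),
  ([.b, .d], [.d, .b]),
  ([.b, .e], [.e, .b]),
  ([.c, .a], [.a, .c]),
  ([.c, .b, .c], [.b, .c, .b]),
  ([.c], [.c]),
  ([.c, .d, .c, .d, .c, .d, .c, .d], [.d, .c, .d, .c, .d, .c, .d, .c]),
  ([.c, .e], [.e, .c]),
  ([.d, .a], [.a, .d]),
  ([.d, .b], [.b, .d]),
  ([.d, .c, .d, .c, .d, .c, .d, .c], [.c, .d, .c, .d, .c, .d, .c, .d]),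
  ([.d], [.d]),
  ([.d, .e, .d], [.e, .d, .e]),
  ([.e, .a], [.a, .e]),
  ([.e, .b], [.b, .e]),
  ([.e, .c], [.c, .e]),
  ([.e, .d, .e], [.d, .e, .d]),
  ([.e], [.e]),
  ([.a, .d, .c, .d, .c], [.c, .d, .c, .d]),
  ([.f], []),
  ([.g], [])]
def s5_prels : List (List Suz.Gen × ℕ × ℕ) := [
  ([.b, .c, .d, .c, .d, .b, .c, .d, .c, .d, .b, .c, .d, .c, .d, .b, .c, .d, .c, .d, .b, .c, .d, .c, .d, .e], 3, 11)]
def s5_S (x : Suz.Gen) : Bool := decide (x ∈ ([.a, .b, .c, .d, .e] : List Suz.Gen))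

def s6_rws : List (List Suz.Gen × List Suz.Gen) := [
  ([.a], [.a]),
  ([.a, .b, .a, .b, .a], [.b, .a, .b, .a, .b]),
  ([.a, .c], [.c, .a]),
  ([.a, .d], [.d, .a]),
  ([.a, .e], [.e, .a]),
  ([.a, .f], [.f, .a]),
  ([.b, .a, .b, .a, .b], [.a, .b, .a, .b, .a]),
  ([.b], [.b]),
  ([.b, .c, .b], [.c, .b, .c]),
  ([.b, .d], [.d, .b]),
  ([.b, .e], [.e, .b]),
  ([.b, .f, .b], [.f, .b, .f]),
  ([.c, .a], [.a, .c]),
  ([.c, .b, .c], [.b, .c, .b]),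
  ([.c], [.c]),
  ([.c, .d, .c, .d, .c, .d, .c, .d], [.d, .c, .d, .c, .d, .c, .d, .c]),
  ([.c, .e], [.e, .c]),
  ([.c, .f], [.f, .c]),
  ([.d, .a], [.a, .d]),
  ([.d, .b], [.b, .d]),
  ([.d, .c, .d, .c, .d, .c, .d, .c], [.c, .d, .c, .d, .c, .d, .c, .d]),
  ([.d], [.d]),
  ([.d, .e, .d], [.e, .d, .e]),
  ([.d, .f], [.f, .d]),
  ([.e, .a], [.a, .e]),
  ([.e, .b], [.b, .e]),
  ([.e, .c], [.c, .e]),
  ([.e, .d, .e], [.d, .e, .d]),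
  ([.e], [.e]),
  ([.e, .f], [.f, .e]),
  ([.f, .a], [.a, .f]),
  ([.f, .b, .f], [.b, .f, .b]),
  ([.f, .c], [.c, .f]),
  ([.f, .d], [.d, .f]),
  ([.f, .e], [.e, .f]),
  ([.f], [.f]),
  ([.a, .d, .c, .d, .c], [.c, .d, .c, .d]),
  ([.g], [])]
def s6_prels : List (List Suz.Gen × ℕ × ℕ) := [
  ([.a, .b, .c, .f], 5, 9),
  ([.b, .c, .d, .c, .d, .b, .c, .d, .c, .d, .b, .c, .d, .c, .d, .b, .c, .d, .c, .d, .b, .c, .d, .c, .d, .e], 3, 11)]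
def s6_S (x : Suz.Gen) : Bool := decide (x ∈ ([.a, .b, .c, .d, .e, .f] : List Suz.Gen))

end Cfsg.Agent.H10.SuzT
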